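import Cfsg.Agent.MaxSub.SingerTwoTrans.Char

/-!
# A transitive action of a group with such a subgroup has a constituent of small multiplicity type
-/

set_option autoImplicit false
set_option linter.unusedSectionVars false
set_option linter.style.haveILetI false

open scoped ComplexConjugate BigOperators

namespace Cfsg.Agent.MaxSub.SingerTwoTrans

universe u v

variable {G : Type u} [Group G] [Fintype G] {Ω : Type v} [MulAction G Ω] {e m k : ℕ}
  {A : Subgroup G} [Fintype A]

theorem exists_nat_resMult {ψ : G → ℂ} (hψ : Cfsg.IsCharacter G ψ) (l : Cfsg.IrrCharacter A) :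
    ∃ n : ℕ, resMult A ψ l = n :=
  Char.isCharacter_classInner_nat (Char.isCharacter_restrict hψ A) l

theorem resMult_sum {ι : Type*} (s : Finset ι) (c : ι → ℕ) (ψ : ι → G → ℂ)
    (l : Cfsg.IrrCharacter A) :
    resMult A (∑ i ∈ s, c i • ψ i) l = ∑ i ∈ s, (c i : ℂ) * resMult A (ψ i) l := by
  have : (fun a : A => (∑ i ∈ s, c i • ψ i) a) = ∑ i ∈ s, (c i : ℂ) • fun a : A => ψ i a := by
    funext a
    simp [Finset.sum_apply, nsmul_eq_mul]
  rw [resMult, this, Char.classInner_sum_left]
  simp only [Char.classInner_smul_left]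
  rfl

theorem resMult_trivialIrr (l : Cfsg.IrrCharacter A) [Decidable (l = Char.trivialIrr A)] :
    resMult A (Char.trivialIrr G : G → ℂ) l = if l = Char.trivialIrr A then 1 else 0 := by
  change Cfsg.classInner (Char.trivialIrr A : A → ℂ) (l : A → ℂ) = _
  split_ifs with h
  · rw [h]; exact Char.classInner_irr_self (Char.trivialIrr A).2
  · exact Char.classInner_irr_ne (Char.trivialIrr A).2 l.2 fun e => h (Subtype.ext e).symm

theorem Cfg.resMult_perm [Finite Ω] (h : Cfg G Ω e m k A) (l : Cfsg.IrrCharacter A) :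
    resMult A (Char.permChar (G := G) Ω) l = k := by
  rw [resMult, Cfsg.classInner, h.card_A, Finset.sum_eq_single (1 : A)]
  · rw [Char.irr_degree_one_of_comm h.comm' l.2, map_one, mul_one, Subgroup.coe_one]
    have h1 : Nat.card (MulAction.fixedBy Ω (1 : G)) = k * m := by
      rw [← h.card_Ω]
      exact Nat.card_congr (Equiv.subtypeUnivEquiv fun w => one_smul G w)
    rw [Char.permChar, h1, Nat.cast_mul, mul_comm (k : ℂ),
      inv_mul_cancel_left₀ (Nat.cast_ne_zero.mpr (by have := h.two_le_m; omega))]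
  · intro a _ ha
    have hE : IsEmpty (MulAction.fixedBy Ω (a : G)) :=
      ⟨fun w => h.free a a.2 (fun e => ha (Subtype.ext e)) w.1 w.2⟩
    simp [Char.permChar]
  · simp

theorem trivial_on {ψ : G → ℂ} (hψ : Cfsg.IsCharacter G ψ)
    (h0 : ∀ l, l ≠ Char.trivialIrr A → resMult A ψ l = 0) : ∀ a ∈ A, ψ a = ψ 1 := by
  have hA := Char.isCharacter_restrict hψ A
  have h1 := Char.eq_sum_classInner_smul (Char.isCharacter_isClassFunction hA)
  rw [Finset.sum_eq_single (Char.trivialIrr A) (fun l _ hl => by
    rw [show Cfsg.classInner (fun a : A => ψ a) (l : A → ℂ) = 0 from h0 l hl, zero_smul])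
    (by simp)] at h1
  intro a ha
  have e1 := congrFun h1 ⟨a, ha⟩
  have e2 := congrFun h1 (1 : A)
  rw [Subgroup.coe_one] at e2
  exact e1.trans (Eq.symm e2)

theorem Cfg.sup_eq_top (h : Cfg G Ω e m k A) {K : Subgroup G} [K.Normal] (hAK : A ≤ K) {s : G}
    (hs : s ∈ Subgroup.normalizer (A : Set G)) (hsA : s ∉ A) :
    Subgroup.zpowers s ⊔ K = ⊤ := by
  obtain ⟨r, hr, hrm⟩ := Nat.exists_prime_and_dvd (show m ≠ 1 by have := h.two_le_m; omega)
  haveI := Fact.mk hr
  obtain ⟨R⟩ : Nonempty (Sylow r A) := inferInstance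
  have hG : Nat.card G = m * A.index := by rw [← h.card_A]; exact A.card_mul_index.symm
  have hv : (Nat.card G).factorization r = m.factorization r := by
    rw [hG, Nat.factorization_mul (by have := h.two_le_m; omega) Subgroup.index_ne_zero_of_finite,
      Finsupp.add_apply, Nat.factorization_eq_zero_of_not_dvd
        (fun hd => hr.ne_one (Nat.dvd_one.mp (h.hall ▸ Nat.dvd_gcd hrm hd))), add_zero]
  have hcard : Nat.card ((R : Subgroup A).map A.subtype) = r ^ (Nat.card G).factorization r := by
    rw [Subgroup.card_map_of_injective A.subtype_injective, Sylow.card_eq_multiplicity, h.card_A,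
      hv]
  let P : Sylow r G := Sylow.ofCard _ hcard
  have hPA : (P : Subgroup G) ≤ A := Subgroup.map_subtype_le _
  have hNP : Subgroup.normalizer ((P : Subgroup G) : Set G) ≤
      Subgroup.normalizer (A : Set G) := by
    have hne : (P : Subgroup G) ≠ ⊥ := fun hbot => by
      have : Nat.card (P : Subgroup G) = 1 := by rw [hbot, Subgroup.card_bot]
      rw [Sylow.card_eq_multiplicity, hv] at this
      exact (Nat.one_lt_pow (Nat.Prime.factorization_pos_of_dvd hr
        (by have := h.two_le_m; omega) hrm).ne' hr.one_lt).ne' this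
    obtain ⟨⟨r0, hr0⟩, hr1'⟩ := Subgroup.ne_bot_iff_exists_ne_one.mp hne
    have hr1 : r0 ≠ 1 := fun e1 => hr1' (Subtype.ext e1)
    intro x hx
    refine h.conj_mem_normalizer (hPA hr0) hr1 (hPA ?_)
    simpa using ((Subgroup.mem_normalizer_iff.mp (inv_mem hx)) r0).mp hr0
  have hN : Subgroup.normalizer (A : Set G) ≤ Subgroup.zpowers s ⊔ A := by
    have hle : Subgroup.zpowers s ⊔ A ≤ Subgroup.normalizer (A : Set G) :=
      sup_le (Subgroup.zpowers_le.mpr hs) Subgroup.le_normalizer
    have h1 := Subgroup.relIndex_mul_relIndex A _ _ le_sup_right hle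
    rw [h.relN] at h1
    rcases (Nat.dvd_prime h.e_prime).mp ⟨_, h1.symm⟩ with h2 | h2
    · exact absurd (Subgroup.relIndex_eq_one.mp h2
        (Subgroup.mem_sup_left (Subgroup.mem_zpowers s))) hsA
    · rw [h2] at h1
      exact Subgroup.relIndex_eq_one.mp
        ((Nat.mul_eq_left h.e_prime.ne_zero).mp h1)
  refine eq_top_iff.mpr ?_
  rw [← Sylow.normalizer_sup_eq_top' P (hPA.trans hAK)]
  exact sup_le ((hNP.trans hN).trans (sup_le_sup_left hAK _)) le_sup_right

theorem Cfg.linear_constituent [Finite Ω] [MulAction.IsPretransitive G Ω]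
    (h : Cfg G Ω e m k A) (ψ : Cfsg.IrrCharacter G) (hA : ∀ a ∈ A, (ψ : G → ℂ) a = (ψ : G → ℂ) 1)
    (hne : Cfsg.classInner (Char.permChar (G := G) Ω) (ψ : G → ℂ) ≠ 0) :
    ψ = Char.trivialIrr G := by
  classical
  obtain ⟨K, hKn, hK⟩ := Char.isCharacter_exists_kernel (Char.isCharacter_of_irr ψ.2)
  haveI := hKn
  obtain ⟨s, hsN, hsA, w0, hw0⟩ := h.fixes
  have htop := h.sup_eq_top (fun a ha => (hK a).mpr (hA a ha)) hsN hsA
  have hgen : ∀ q : G ⧸ K, ∃ i : ℤ, q = (s : G ⧸ K) ^ i := by
    intro q
    obtain ⟨g, rfl⟩ := QuotientGroup.mk_surjective q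
    obtain ⟨y, hy, z, hz, hyz⟩ :=
      Subgroup.mem_sup_of_normal_right.mp (htop.symm ▸ Subgroup.mem_top g)
    obtain ⟨i, rfl⟩ := Subgroup.mem_zpowers_iff.mp hy
    exact ⟨i, by rw [← hyz, QuotientGroup.mk_mul, (QuotientGroup.eq_one_iff z).mpr hz, mul_one,
      QuotientGroup.mk_zpow]⟩
  obtain ⟨ψ', hψ', hψe⟩ := Char.irr_exists_descend ψ.2 K fun n hn => (hK n).mp hn
  have h1 : (ψ : G → ℂ) 1 = 1 := by
    rw [hψe, QuotientGroup.mk_one]
    refine Char.irr_degree_one_of_comm (fun a b => ?_) hψ'
    obtain ⟨i, rfl⟩ := hgen a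
    obtain ⟨j, rfl⟩ := hgen b
    exact zpow_mul_comm _ i j
  obtain ⟨f, hf⟩ := Char.exists_monoidHom_of_degree_one (Char.isCharacter_of_irr ψ.2) h1
  by_cases hfs : f s = 1
  · refine Subtype.ext (funext fun g => ?_)
    have hle : (⊤ : Subgroup G) ≤ f.ker := htop ▸ sup_le (Subgroup.zpowers_le.mpr hfs)
      (fun x hx => MonoidHom.mem_ker.mpr (Units.ext (by rw [← hf, (hK x).mp hx, h1, Units.val_one])))
    change (ψ : G → ℂ) g = 1
    rw [hf, MonoidHom.mem_ker.mp (hle (Subgroup.mem_top g)), Units.val_one]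
  · exfalso
    apply hne
    letI := Fintype.ofFinite Ω
    have hfix : ∀ g : G, Char.permChar (G := G) Ω g = ∑ w : Ω, if g • w = w then (1 : ℂ) else 0 := by
      intro g
      rw [Finset.sum_boole, Char.permChar]
      congr 1
      rw [Nat.card_eq_fintype_card, ← Fintype.card_subtype]
      exact Fintype.card_congr (Equiv.refl _)
    rw [Cfsg.classInner]
    simp only [hfix, Finset.sum_mul, ite_mul, one_mul, zero_mul]
    rw [Finset.sum_comm]
    refine mul_eq_zero_of_right _ (Finset.sum_eq_zero fun w _ => ?_)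
    obtain ⟨t, ht⟩ := MulAction.exists_smul_eq G w0 w
    have hs' : (t * s * t⁻¹) • w = w := by
      rw [← ht, mul_smul, inv_smul_smul, mul_smul, hw0]
    have hfs' : f (t * s * t⁻¹) = f s := by
      rw [map_mul, map_mul, map_inv, mul_right_comm, mul_inv_cancel, one_mul]
    have hsum := Char.monoidHom_sum_eq_zero
      (f := f.comp (MulAction.stabilizer G w).subtype) (fun h0 => hfs (by
        rw [← hfs']
        exact DFunLike.congr_fun h0 ⟨_, MulAction.mem_stabilizer_iff.mpr hs'⟩))
    rw [← Finset.sum_filter, Finset.sum_subtype (p := fun g : G => g ∈ MulAction.stabilizer G w) _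
      (fun g => by simp [MulAction.mem_stabilizer_iff])]
    simp only [hf, ← map_sum]
    rw [show ∑ a : MulAction.stabilizer G w, (f (a : G) : ℂ) = 0 from hsum, map_zero]

/-- No family of exceptional constituents of degree `e`. -/
theorem Reps.kill (R : Reps A) (h : Cfg G Ω e m k A) (i₀ : Fin R.n)
    (μ : Fin R.n → Cfsg.IrrCharacter G)
    (h1 : ∀ j, resMult A (μ j : G → ℂ) (Char.trivialIrr A) = 0)
    (hd : ∀ i j, resMult A (μ j : G → ℂ) (R.lam i) = if i = j then 1 else 0)
    (hconst : ∀ ψ : Cfsg.IrrCharacter G, (∀ i, ψ ≠ μ i) →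
      ∀ i, resMult A (ψ : G → ℂ) (R.lam i) = resMult A (ψ : G → ℂ) (R.lam i₀)) : False := by
  classical
  have hμc : ∀ j, Cfsg.IsCharacter G (μ j : G → ℂ) := fun j => Char.isCharacter_of_irr (μ j).2
  have hdeg : ∀ j, (μ j : G → ℂ) 1 = e := fun j => by
    rw [R.degree h (hμc j), h1, zero_add]
    simp [hd]
  have hval : ∀ j l, resMult A (μ j : G → ℂ) l = 0 ∨ resMult A (μ j : G → ℂ) l = 1 := by
    intro j l
    by_cases hl : l = Char.trivialIrr A
    · exact Or.inl (hl ▸ h1 j)
    · obtain ⟨i, x, rfl⟩ := R.surj l hl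
      rw [resMult_tw (Char.irr_isClassFunction (μ j).2), hd]
      split_ifs <;> simp
  set K0 : Subgroup G := Subgroup.normalClosure (A : Set G)
  have hAK : A ≤ K0 := Subgroup.subset_normalClosure
  haveI : K0.Normal := Subgroup.normalClosure_normal
  have hker : ∀ j, ∀ g ∈ K0, ∀ g' ∈ K0, (μ j : G → ℂ) (g * g' * g⁻¹ * g'⁻¹) = (μ j : G → ℂ) 1 := by
    intro j
    have hres : Cfsg.IsCharacter K0 (fun x : K0 => (μ j : G → ℂ) x) :=
      Char.isCharacter_restrict (hμc j) K0
    obtain ⟨c, hc, hci⟩ := Char.isCharacter_exists_coeff hres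
    -- the coefficients are at most one
    have hc1 : ∀ ρ, c ρ ≤ 1 := by
      intro ρ
      have hρA : Cfsg.IsCharacter A ((ρ : K0 → ℂ) ∘ Subgroup.inclusion hAK) :=
        Char.isCharacter_comp (Char.isCharacter_of_irr ρ.2) _
      obtain ⟨l, n, hn, hnl⟩ := Char.exists_irr_constituent hρA
        (fun h0 => Char.irr_one_ne_zero ρ.2 (by simpa using congrFun h0 1))
      choose g hg using fun σ : Cfsg.IrrCharacter K0 => Char.isCharacter_classInner_nat
        (Char.isCharacter_comp (Char.isCharacter_of_irr σ.2) (Subgroup.inclusion hAK)) l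
      have hgρ : g ρ = n := by exact_mod_cast (hg ρ).symm.trans hnl
      have hsum : resMult A (μ j : G → ℂ) l = ((∑ σ, c σ * g σ : ℕ) : ℂ) := by
        have e1 : (fun a : A => (μ j : G → ℂ) a) =
            ∑ σ, (c σ : ℂ) • ((σ : K0 → ℂ) ∘ Subgroup.inclusion hAK) := by
          funext a
          have := congrFun hc (Subgroup.inclusion hAK a)
          simpa [Finset.sum_apply, nsmul_eq_mul] using this
        rw [resMult, e1, Char.classInner_sum_left]
        simp [Char.classInner_smul_left, hg]
      have h01 : ∑ σ, c σ * g σ ≤ 1 := by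
        rcases hval j l with h0 | h0 <;> rw [hsum] at h0
        · rw [show ∑ σ, c σ * g σ = 0 by exact_mod_cast h0]; exact Nat.zero_le _
        · rw [show ∑ σ, c σ * g σ = 1 by exact_mod_cast h0]
      have h2 := (Finset.single_le_sum (f := fun σ => c σ * g σ) (fun _ _ => Nat.zero_le _)
        (Finset.mem_univ ρ)).trans h01
      rw [hgρ] at h2
      nlinarith
    choose d hd0 hd1 using fun ρ : Cfsg.IrrCharacter K0 => Char.irr_one_pos ρ.2
    have hdsum : ∑ ρ, c ρ * d ρ = e := by
      have := congrFun hc 1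
      simp only [Subgroup.coe_one, hdeg, Finset.sum_apply, hd1,
        nsmul_eq_mul, Pi.mul_apply, Pi.natCast_apply] at this
      exact_mod_cast this.symm
    -- the norm is at least `e`
    have hnorm : e ≤ ∑ ρ, c ρ := by
      set P : G → ℂ := (μ j : G → ℂ) * fun g => conj ((μ j : G → ℂ) g) with hP
      have hPc : Cfsg.IsCharacter G P :=
        Char.isCharacter_mul (hμc j) (Char.isCharacter_conjFun (hμc j))
      obtain ⟨p, hp, -⟩ := Char.isCharacter_exists_coeff hPc
      choose dd hdd0 hdd1 using fun ψ : Cfsg.IrrCharacter G => Char.irr_one_pos ψ.2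
      have hPdeg : ∑ ψ, p ψ * dd ψ = e * e := by
        have := congrFun hp 1
        rw [hP, Pi.mul_apply] at this
        simp only [hdeg j, Complex.conj_natCast, Finset.sum_apply] at this
        simp only [hdd1, nsmul_eq_mul, Pi.mul_apply, Pi.natCast_apply] at this
        exact_mod_cast this.symm
      choose a ha using fun ψ : Cfsg.IrrCharacter G =>
        exists_nat_resMult (A := A) (Char.isCharacter_of_irr ψ.2) (Char.trivialIrr A)
      choose b hb using fun ψ : Cfsg.IrrCharacter G => Char.isCharacter_classInner_nat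
        (Char.isCharacter_restrict (Char.isCharacter_of_irr ψ.2) K0) (Char.trivialIrr K0)
      have key : ∀ ψ, p ψ * a ψ ≤ p ψ * b ψ := by
        intro ψ
        rcases Nat.eq_zero_or_pos (p ψ) with hp0 | hp0
        · simp [hp0]
        by_cases hμ : ∃ i, ψ = μ i
        · obtain ⟨i, rfl⟩ := hμ
          have : a (μ i) = 0 := by exact_mod_cast (ha (μ i)).symm.trans (h1 i)
          simp [this]
        push Not at hμ
        apply Nat.mul_le_mul_left
        choose F hF using fun l => exists_nat_resMult (A := A) (Char.isCharacter_of_irr ψ.2) l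
        have hFc : ∀ i, F (R.lam i) = F (R.lam i₀) := fun i => by
          have := hconst ψ hμ i
          rw [hF, hF] at this
          exact_mod_cast this
        have hdψ : dd ψ = a ψ + e * (R.n * F (R.lam i₀)) := by
          have := R.degree h (Char.isCharacter_of_irr ψ.2)
          simp only [hdd1, ha, hF, hFc, Finset.sum_const, Finset.card_univ, Fintype.card_fin,
            nsmul_eq_mul] at this
          exact_mod_cast this
        have hle : dd ψ ≤ e * e := by
          rw [← hPdeg]
          exact le_trans (Nat.le_mul_of_pos_left _ hp0)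
            (Finset.single_le_sum (f := fun ψ => p ψ * dd ψ) (fun _ _ => Nat.zero_le _)
              (Finset.mem_univ ψ))
        have hen : e * R.n + 1 = m := (R.mul_n h).trans h.card_irr
        have hF0 : F (R.lam i₀) = 0 := by
          by_contra hne
          have h3 : e * R.n ≤ e * (R.n * F (R.lam i₀)) :=
            Nat.mul_le_mul_left _ (Nat.le_mul_of_pos_right _ (Nat.pos_of_ne_zero hne))
          have := h.large
          omega
        have htriv : ∀ x ∈ A, (ψ : G → ℂ) x = (ψ : G → ℂ) 1 := by
          refine trivial_on (Char.isCharacter_of_irr ψ.2) fun l hl => ?_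
          obtain ⟨i, x, rfl⟩ := R.surj l hl
          rw [resMult_tw (Char.irr_isClassFunction ψ.2), hF, hFc, hF0, Nat.cast_zero]
        obtain ⟨K, hKn, hK⟩ := Char.isCharacter_exists_kernel (Char.isCharacter_of_irr ψ.2)
        haveI := hKn
        have hK0 : K0 ≤ K := Subgroup.normalClosure_le_normal fun x hx => (hK x).mpr (htriv x hx)
        have hda : a ψ = dd ψ := by rw [hdψ, hF0, mul_zero, mul_zero, add_zero]
        have hdb : (b ψ : ℂ) = dd ψ := by
          rw [← hb, Cfsg.classInner]
          simp only [Char.trivialIrr, map_one, mul_one]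
          rw [Finset.sum_congr rfl (fun x _ => (hK x.1).mp (hK0 x.2)), Finset.sum_const,
            Finset.card_univ, nsmul_eq_mul, ← Nat.card_eq_fintype_card,
            inv_mul_cancel_left₀ CharInd.natCard_ne_zero, hdd1]
        rw [show b ψ = dd ψ by exact_mod_cast hdb, hda]
      have hA2 : Cfsg.classInner (fun x : A => P x) (Char.trivialIrr A : A → ℂ) =
          ((∑ ψ, p ψ * a ψ : ℕ) : ℂ) := by
        change resMult A P (Char.trivialIrr A) = _
        conv_lhs => rw [hp]
        rw [resMult_sum]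
        simp [ha]
      have hK2 : Cfsg.classInner (fun x : K0 => P x) (Char.trivialIrr K0 : K0 → ℂ) =
          ((∑ ψ, p ψ * b ψ : ℕ) : ℂ) := by
        have e1 : (fun x : K0 => P x) = ∑ ψ, (p ψ : ℂ) • fun x : K0 => (ψ : G → ℂ) x := by
          funext x
          have := congrFun hp x
          simpa [Finset.sum_apply, nsmul_eq_mul] using this
        rw [e1, Char.classInner_sum_left]
        simp [Char.classInner_smul_left, hb]
      have hA3 : Cfsg.classInner (fun x : A => P x) (Char.trivialIrr A : A → ℂ) = e := by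
        have e1 : Cfsg.classInner (fun x : A => P x) (Char.trivialIrr A : A → ℂ) =
            Cfsg.classInner (fun x : A => (μ j : G → ℂ) x) (fun x : A => (μ j : G → ℂ) x) := by
          simp [Cfsg.classInner, hP, Char.trivialIrr]
        rw [e1, Char.classInner_eq_sum_mul_conj
          (Char.isCharacter_isClassFunction (Char.isCharacter_restrict (hμc j) A))]
        change ∑ l, resMult A (μ j : G → ℂ) l * conj (resMult A (μ j : G → ℂ) l) = _
        rw [← hdeg j]
        have e2 := congrFun (Char.eq_sum_classInner_smul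
          (Char.isCharacter_isClassFunction (Char.isCharacter_restrict (hμc j) A))) 1
        simp only [Subgroup.coe_one, Finset.sum_apply, Pi.smul_apply, smul_eq_mul,
          Char.irr_degree_one_of_comm h.comm' (Subtype.prop _), mul_one] at e2
        rw [e2]
        refine Finset.sum_congr rfl fun l _ => ?_
        change _ = resMult A (μ j : G → ℂ) l
        rcases hval j l with h0 | h0 <;> simp [h0]
      have hK3 : Cfsg.classInner (fun x : K0 => P x) (Char.trivialIrr K0 : K0 → ℂ) =
          ((∑ ρ, c ρ * c ρ : ℕ) : ℂ) := by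
        have e1 : Cfsg.classInner (fun x : K0 => P x) (Char.trivialIrr K0 : K0 → ℂ) =
            Cfsg.classInner (fun x : K0 => (μ j : G → ℂ) x) (fun x : K0 => (μ j : G → ℂ) x) := by
          simp [Cfsg.classInner, hP, Char.trivialIrr]
        rw [e1, Char.classInner_eq_sum_mul_conj (Char.isCharacter_isClassFunction hres)]
        simp [hci]
      have hle : ∑ ψ, p ψ * a ψ ≤ ∑ ψ, p ψ * b ψ := Finset.sum_le_sum fun ψ _ => key ψ
      have ea : ∑ ψ, p ψ * a ψ = e := by exact_mod_cast hA2.symm.trans hA3
      have eb : ∑ ψ, p ψ * b ψ = ∑ ρ, c ρ * c ρ := by exact_mod_cast hK2.symm.trans hK3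
      calc e ≤ ∑ ρ, c ρ * c ρ := by omega
        _ ≤ ∑ ρ, c ρ := Finset.sum_le_sum fun ρ _ => by
          have := hc1 ρ
          nlinarith
    have hlin : ∀ ρ, c ρ ≠ 0 → d ρ = 1 := by
      intro ρ hρ
      by_contra hne
      have hlt : ∑ σ, c σ < ∑ σ, c σ * d σ := by
        refine Finset.sum_lt_sum (fun σ _ => Nat.le_mul_of_pos_right _ (hd0 σ))
          ⟨ρ, Finset.mem_univ _, ?_⟩
        have := hd0 ρ
        exact lt_mul_of_one_lt_right (Nat.pos_of_ne_zero hρ) (by omega)
      omega
    intro g hg g' hg'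
    let x : K0 := ⟨g, hg⟩
    let y : K0 := ⟨g', hg'⟩
    have hcom : x * y * x⁻¹ * y⁻¹ ∈ commutator K0 := by
      rw [← commutatorElement_def, commutator_def]
      exact Subgroup.commutator_mem_commutator (Subgroup.mem_top x) (Subgroup.mem_top y)
    have e1 := congrFun hc (x * y * x⁻¹ * y⁻¹)
    have e2 := congrFun hc 1
    simp only [Finset.sum_apply, Pi.smul_apply] at e1 e2
    rw [Subgroup.coe_one] at e2
    refine e1.trans (Eq.trans (Finset.sum_congr rfl fun ρ _ => ?_) e2.symm)
    by_cases hρ : c ρ = 0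
    · simp [hρ]
    · have h11 : (ρ : K0 → ℂ) 1 = 1 := by rw [hd1, hlin ρ hρ, Nat.cast_one]
      rw [Char.linear_eq_one_of_mem_commutator (Char.isCharacter_of_irr ρ.2) h11 hcom, h11]
  choose Kf hKn hKm using fun j => Char.isCharacter_exists_kernel (hμc j)
  set T : Subgroup G := ⨅ j, Kf j
  have hT : T.Normal := Subgroup.normal_iInf_normal hKn
  have hTA : T ⊓ A = ⊥ := by
    rw [Subgroup.eq_bot_iff_forall]
    rintro g ⟨hgT, hgA⟩
    let a : A := ⟨g, hgA⟩
    suffices a = 1 from congrArg Subtype.val this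
    by_contra ha
    obtain ⟨l, hl⟩ := Char.exists_irr_ne_degree ha
    apply hl
    by_cases hl1 : l = Char.trivialIrr A
    · rw [hl1]; rfl
    obtain ⟨i, x, hx⟩ := R.surj l hl1
    have hf1 : resMult A (μ i : G → ℂ) l = 1 := by
      rw [← hx, resMult_tw (Char.irr_isClassFunction (μ i).2), hd, if_pos rfl]
    obtain ⟨f, hf⟩ := Char.irr_exists_monoidHom_of_comm h.comm' l.2
    have hshift : resMult A (μ i : G → ℂ) l = conj ((f a : ℂ)) * resMult A (μ i : G → ℂ) l := by
      simp only [resMult, Cfsg.classInner]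
      conv_lhs => rw [← Equiv.sum_comp (Equiv.mulLeft a)]
      simp only [Equiv.coe_mulLeft, hf, map_mul, Units.val_mul, Subgroup.coe_mul]
      simp only [(Char.isCharacter_mul_of_mem_ker (hμc i)
        ((hKm i g).mp (Subgroup.mem_iInf.mp hgT i)) _).1, a, Finset.mul_sum]
      exact Finset.sum_congr rfl fun b _ => by ring
    rw [hf1, mul_one] at hshift
    have := congrArg conj hshift
    rw [Complex.conj_conj, map_one] at this
    rw [hf, hf, map_one, ← this, Units.val_one]
  have hTbot := h.core T hT hTA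
  apply h.not_normal
  have hKA : K0 = A := by
    refine le_antisymm (fun g hg => ?_) hAK
    haveI : Nontrivial A := Finite.one_lt_card_iff_nontrivial.mp
      (by rw [h.card_A]; exact h.two_le_m)
    obtain ⟨a, ha⟩ := exists_ne (1 : A)
    refine h.cc a a.2 (fun e1 => ha (Subtype.ext e1)) g ?_
    have : g * a * g⁻¹ * (a : G)⁻¹ ∈ T := Subgroup.mem_iInf.mpr fun i =>
      (hKm i _).mpr (hker i g hg a (hAK a.2))
    rw [hTbot, Subgroup.mem_bot] at this
    exact mul_inv_eq_iff_eq_mul.mp (mul_inv_eq_one.mp this)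
  exact hKA ▸ (inferInstance : K0.Normal)

/-- The degree of some constituent of the permutation character. -/
theorem exists_degree {G : Type u} [Group G] [Finite G] {Ω : Type v} [Finite Ω] [MulAction G Ω]
    [MulAction.IsPretransitive G Ω] {e m k : ℕ} {A : Subgroup G} (h : Cfg G Ω e m k A) :
    ∃ a b, a < b ∧ b ≤ k ∧ b * (m - 1) + a ∣ Nat.card G ∧
      (b = k → MulAction.IsMultiplyPretransitive G Ω 2) := by
  classical
  letI := Fintype.ofFinite G
  letI := Fintype.ofFinite A
  obtain ⟨R⟩ := exists_reps (A := A)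
  have hen : e * R.n + 1 = m := (R.mul_n h).trans h.card_irr
  have he := h.e_prime.two_le
  have hn : k + 2 ≤ R.n := by
    by_contra hlt
    have := Nat.mul_le_mul_left e (show R.n ≤ k + 2 by omega)
    have h2 : e * (R.n + 1) ≤ e * (k + 2) := Nat.mul_le_mul_left e (by omega)
    have := h.large'
    rw [Nat.mul_succ] at h2
    omega
  let i₀ : Fin R.n := ⟨0, by omega⟩
  obtain ⟨M, hM, hMi⟩ := Char.isCharacter_exists_coeff (Char.isCharacter_permChar (G := G) Ω)
  choose F hF using fun (ψ : Cfsg.IrrCharacter G) (l : Cfsg.IrrCharacter A) =>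
    exists_nat_resMult (A := A) (Char.isCharacter_of_irr ψ.2) l
  have hsum : ∀ l, ∑ ψ, M ψ * F ψ l = k := by
    intro l
    have := h.resMult_perm l
    rw [hM, resMult_sum] at this
    simp only [hF] at this
    exact_mod_cast this
  obtain ⟨w0⟩ : Nonempty Ω := let ⟨_, _, _, w, _⟩ := h.fixes; ⟨w⟩
  haveI : Nonempty Ω := ⟨w0⟩
  have hM1 : M (Char.trivialIrr G) = 1 := by
    have := hMi (Char.trivialIrr G)
    rw [show ((Char.trivialIrr G : Cfsg.IrrCharacter G) : G → ℂ) = fun _ => 1 from rfl,
      Char.classInner_permChar_one, Char.card_orbits_eq_one_of_pretransitive] at this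
    exact_mod_cast this.symm
  have hFt : ∀ l, F (Char.trivialIrr G) l = if l = Char.trivialIrr A then 1 else 0 := fun l => by
    have := (hF (Char.trivialIrr G) l).symm.trans (resMult_trivialIrr l)
    split_ifs with hl
    · rw [if_pos hl] at this; exact_mod_cast this
    · rw [if_neg hl] at this; exact_mod_cast this
  have hka : (∑ ψ ∈ Finset.univ.erase (Char.trivialIrr G), M ψ * F ψ (Char.trivialIrr A)) + 1 = k := by
    have := hsum (Char.trivialIrr A)
    rw [← Finset.add_sum_erase _ _ (Finset.mem_univ (Char.trivialIrr G)), hM1, hFt, if_pos rfl] at this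
    omega
  obtain ⟨ε, μ, hε, hinj, hμ1, hrel⟩ := R.exceptional h i₀
  have hrel' : ∀ (ψ : Cfsg.IrrCharacter G) i, (F ψ (R.lam i) : ℂ) - F ψ (R.lam i₀) =
      ε * ((if ψ = μ i then 1 else 0) - (if ψ = μ i₀ then 1 else 0)) := fun ψ i => by
    rw [← hF, ← hF, hrel _ (Char.irr_isClassFunction ψ.2), Char.classInner_irrCharacter,
      Char.classInner_irrCharacter]
  have hε0 : ε ≠ 0 := by rcases hε with rfl | rfl <;> norm_num
  have hMμ : ∀ i, M (μ i) = M (μ i₀) := by
    intro i
    have := hrel _ (Char.isCharacter_isClassFunction (Char.isCharacter_permChar (G := G) Ω)) i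
    rw [h.resMult_perm, h.resMult_perm, sub_self, hMi, hMi, eq_comm, mul_eq_zero,
      or_iff_right hε0, sub_eq_zero] at this
    exact_mod_cast this
  have hother : ∀ ψ : Cfsg.IrrCharacter G, (∀ i, ψ ≠ μ i) → ∀ i, F ψ (R.lam i) = F ψ (R.lam i₀) := by
    intro ψ hψ i
    have := hrel' ψ i
    rw [if_neg (hψ i), if_neg (hψ i₀), sub_self, mul_zero, sub_eq_zero] at this
    exact_mod_cast this
  have hdeg : ∀ ψ : Cfsg.IrrCharacter G, (ψ : G → ℂ) 1 =
      ((F ψ (Char.trivialIrr A) + e * ∑ i, F ψ (R.lam i) : ℕ) : ℂ) := fun ψ => by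
    rw [R.degree h (Char.isCharacter_of_irr ψ.2)]
    simp [hF]
  have hnotriv : ∀ i, μ i ≠ Char.trivialIrr G := by
    intro i hi
    obtain ⟨j, hj⟩ : ∃ j, j ≠ i := Fintype.exists_ne_of_one_lt_card
      (by rw [Fintype.card_fin]; omega) i
    have hz : ∀ t, (F (μ i) (R.lam t) : ℂ) = 0 := fun t => by
      rw [hi, hFt, if_neg (R.ne_one t), Nat.cast_zero]
    have e1 := hrel' (μ i) i
    have e2 := hrel' (μ i) j
    rw [hz, hz, sub_self, eq_comm, mul_eq_zero, or_iff_right hε0, sub_eq_zero] at e1 e2
    rw [if_pos rfl] at e1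
    rw [if_neg (fun e => hj (hinj e).symm), ← e1] at e2
    exact zero_ne_one e2
  by_cases hM0 : M (μ i₀) = 0
  · -- every relevant constituent is constant
    let S := Finset.univ.erase (Char.trivialIrr G)
    have hnp : ∀ ψ, M ψ ≠ 0 → ∀ i, F ψ (R.lam i) = F ψ (R.lam i₀) := fun ψ hψ =>
      hother ψ fun i e1 => hψ (by rw [e1, hMμ, hM0])
    have hkb : ∑ ψ ∈ S, M ψ * F ψ (R.lam i₀) = k := by
      have := hsum (R.lam i₀)
      rwa [← Finset.add_sum_erase _ _ (Finset.mem_univ (Char.trivialIrr G)), hFt,
        if_neg (R.ne_one i₀), mul_zero, zero_add] at this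
    obtain ⟨ψ, hψS, hlt⟩ : ∃ ψ ∈ S, M ψ * F ψ (Char.trivialIrr A) < M ψ * F ψ (R.lam i₀) :=
      Finset.exists_lt_of_sum_lt (by rw [hkb]; exact Nat.lt_of_succ_le hka.le)
    have hMψ : M ψ ≠ 0 := fun e1 => by simp [e1] at hlt
    have hle : M ψ * F ψ (R.lam i₀) ≤ k := hkb ▸
      Finset.single_le_sum (f := fun ψ => M ψ * F ψ (R.lam i₀)) (fun _ _ => Nat.zero_le _) hψS
    refine ⟨F ψ (Char.trivialIrr A), F ψ (R.lam i₀), Nat.lt_of_mul_lt_mul_left hlt,
      (Nat.le_mul_of_pos_left _ (Nat.pos_of_ne_zero hMψ)).trans hle, ?_, fun hbk => ?_⟩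
    · obtain ⟨d, -, hd, hdvd⟩ := Char.irr_degree_dvd_card ψ.2
      rw [hdeg] at hd
      have hd' : F ψ (Char.trivialIrr A) + e * ∑ i, F ψ (R.lam i) = d := by exact_mod_cast hd
      rw [Finset.sum_congr rfl (fun i _ => hnp ψ hMψ i), Finset.sum_const, Finset.card_univ,
        Fintype.card_fin, smul_eq_mul, ← mul_assoc] at hd'
      rw [← hen, Nat.add_sub_cancel, Nat.mul_comm (F ψ _), Nat.add_comm, hd']
      exact hdvd
    · have hk : 0 < k := by omega
      have hM1' : M ψ = 1 := by
        rw [hbk] at hle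
        have h3 : 1 ≤ M ψ := Nat.pos_of_ne_zero hMψ
        nlinarith
      have hzero : ∀ φ ∈ S, φ ≠ ψ → M φ = 0 := by
        intro φ hφ hne
        by_contra hMφ
        have h0 : M φ * F φ (R.lam i₀) = 0 := by
          have h3 := Finset.add_sum_erase S (fun ψ => M ψ * F ψ (R.lam i₀)) hψS
          rw [hkb, hM1', one_mul, hbk] at h3
          exact Finset.sum_eq_zero_iff.mp (show ∑ x ∈ S.erase ψ, M x * F x (R.lam i₀) = 0 by omega)
            φ (Finset.mem_erase.mpr ⟨hne, hφ⟩)
        have hF0 : F φ (R.lam i₀) = 0 := (mul_eq_zero.mp h0).resolve_left hMφ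
        refine (Finset.mem_erase.mp hφ).1 (h.linear_constituent φ ?_ ?_)
        · refine trivial_on (Char.isCharacter_of_irr φ.2) fun l hl => ?_
          obtain ⟨i, x, rfl⟩ := R.surj l hl
          rw [resMult_tw (Char.irr_isClassFunction φ.2), hF, hnp φ hMφ i, hF0, Nat.cast_zero]
        · rw [hMi]; exact Nat.cast_ne_zero.mpr hMφ
      have hperm : (fun g => Char.permChar (G := G) Ω g - 1) = (ψ : G → ℂ) := by
        funext g
        have := congrFun hM g
        rw [this, Finset.sum_apply, ← Finset.add_sum_erase _ _ (Finset.mem_univ (Char.trivialIrr G)),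
          hM1, Finset.sum_eq_single_of_mem ψ hψS (fun φ hφ hne => by simp [hzero φ hφ hne]), hM1']
        simp [Char.trivialIrr]
      have hX : 2 ≤ Nat.card Ω := by
        rw [h.card_Ω]
        exact h.two_le_m.trans (Nat.le_mul_of_pos_left m hk)
      exact (Char.isIrrCharacter_permChar_sub_one_iff Ω hX).mp (hperm ▸ ψ.2)
  · exfalso
    have hpos : 1 ≤ M (μ i₀) := Nat.pos_of_ne_zero hM0
    have hle : ∀ l, ∑ j, F (μ j) l + (if l = Char.trivialIrr A then 1 else 0) ≤ k := by
      intro l
      have h2 : M (Char.trivialIrr G) * F (Char.trivialIrr G) l + ∑ j, M (μ j) * F (μ j) l ≤ k := by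
        rw [← hsum l, ← Finset.sum_image (g := μ) (f := fun ψ => M ψ * F ψ l) hinj.injOn,
          ← Finset.sum_insert (a := Char.trivialIrr G)
            (f := fun ψ => M ψ * F ψ l) (by simp [hnotriv])]
        exact Finset.sum_le_sum_of_subset (Finset.subset_univ _)
      have h3 : ∑ j, F (μ j) l ≤ ∑ j, M (μ j) * F (μ j) l := Finset.sum_le_sum fun j _ =>
        Nat.le_mul_of_pos_left _ (by rw [hMμ]; exact hpos)
      rw [hM1, hFt] at h2
      omega
    have hdelta : ∀ j t, (if μ j = μ t then (1 : ℂ) else 0) = if j = t then 1 else 0 := fun j t => by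
      by_cases e1 : j = t
      · rw [e1, if_pos rfl, if_pos rfl]
      · rw [if_neg e1, if_neg fun e => e1 (hinj e)]
    rcases hε with rfl | rfl
    · -- sign `1`
      have hz : ∀ i j, F (μ j) (R.lam i) + (if j = i₀ then 1 else 0) =
          F (μ j) (R.lam i₀) + (if j = i then 1 else 0) := fun i j => by
        have := hrel' (μ j) i
        rw [hdelta, hdelta, one_mul] at this
        have h2 : ((F (μ j) (R.lam i) + (if j = i₀ then 1 else 0) : ℕ) : ℂ) =
            ((F (μ j) (R.lam i₀) + (if j = i then 1 else 0) : ℕ) : ℂ) := by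
          push_cast
          linear_combination this
        exact_mod_cast h2
      let c : Fin R.n → ℕ := fun j => F (μ j) (R.lam i₀) - if j = i₀ then 1 else 0
      have hc : ∀ i j, F (μ j) (R.lam i) = c j + if j = i then 1 else 0 := by
        intro i j
        obtain ⟨t, ht⟩ : ∃ t, t ≠ j := Fintype.exists_ne_of_one_lt_card
          (by rw [Fintype.card_fin]; omega) j
        have h1 := hz i j
        have h2 := hz t j
        rw [if_neg (Ne.symm ht)] at h2
        simp only [c]
        split_ifs at h1 h2 ⊢ <;> omega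
      have hcsum : ∑ j, c j + 1 ≤ k := by
        have := hle (R.lam i₀)
        rw [if_neg (R.ne_one i₀), Finset.sum_congr rfl (fun j _ => hc i₀ j),
          Finset.sum_add_distrib, Finset.sum_ite_eq' Finset.univ i₀, if_pos (Finset.mem_univ _)] at this
        exact this
      obtain ⟨j1, hj1⟩ : ∃ j, c j = 0 := by
        by_contra hall
        push Not at hall
        have : ∑ _j : Fin R.n, 1 ≤ ∑ j, c j :=
          Finset.sum_le_sum fun j _ => Nat.pos_of_ne_zero (hall j)
        simp only [Finset.sum_const, Finset.card_univ, Fintype.card_fin, smul_eq_mul, mul_one] at this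
        omega
      have hD : ∀ j, F (μ j) (Char.trivialIrr A) + e * (R.n * c j + 1) =
          F (μ j1) (Char.trivialIrr A) + e := by
        intro j
        have h1 : ((μ j : G → ℂ) 1) = (μ j1 : G → ℂ) 1 := (hμ1 j).trans (hμ1 j1).symm
        rw [hdeg, hdeg] at h1
        have h2 : F (μ j) (Char.trivialIrr A) + e * ∑ i, F (μ j) (R.lam i) =
            F (μ j1) (Char.trivialIrr A) + e * ∑ i, F (μ j1) (R.lam i) := by exact_mod_cast h1
        simp only [hc, Finset.sum_add_distrib, Finset.sum_const, Finset.card_univ, Fintype.card_fin,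
          smul_eq_mul, Finset.sum_ite_eq, Finset.mem_univ, if_true, hj1, zero_add,
          mul_one] at h2
        exact h2
      have ha1 : F (μ j1) (Char.trivialIrr A) + 1 ≤ k := by
        have := hle (Char.trivialIrr A)
        rw [if_pos rfl] at this
        have h2 := Finset.single_le_sum (f := fun j => F (μ j) (Char.trivialIrr A))
          (fun _ _ => Nat.zero_le _) (Finset.mem_univ j1)
        omega
      have hc0 : ∀ j, c j = 0 := by
        intro j
        by_contra hne
        have h1 := hD j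
        have h2 : e * R.n ≤ e * (R.n * c j) :=
          Nat.mul_le_mul_left _ (Nat.le_mul_of_pos_right _ (Nat.pos_of_ne_zero hne))
        have h3 : e * (k + 2) ≤ e * R.n := Nat.mul_le_mul_left _ hn
        have h4 : k + 2 ≤ e * (k + 2) := Nat.le_mul_of_pos_left _ (by omega)
        rw [mul_add, mul_one] at h1
        omega
      have ha0 : ∀ j, F (μ j) (Char.trivialIrr A) = 0 := by
        intro j
        have hconst : ∀ t, F (μ t) (Char.trivialIrr A) = F (μ j) (Char.trivialIrr A) := fun t => by
          have h1 := hD t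
          have h2 := hD j
          rw [hc0, mul_zero, zero_add, mul_one] at h1 h2
          omega
        have := hle (Char.trivialIrr A)
        rw [if_pos rfl, Finset.sum_congr rfl (fun t _ => hconst t), Finset.sum_const,
          Finset.card_univ, Fintype.card_fin, smul_eq_mul] at this
        by_contra hne
        have := Nat.le_mul_of_pos_right R.n (Nat.pos_of_ne_zero hne)
        omega
      refine R.kill h i₀ μ (fun j => by rw [hF, ha0, Nat.cast_zero]) (fun i j => ?_)
        (fun ψ hψ i => by rw [hF, hF, hother ψ hψ i])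
      rw [hF, hc, hc0, zero_add]
      by_cases e1 : i = j
      · rw [if_pos e1, if_pos e1.symm, Nat.cast_one]
      · rw [if_neg e1, if_neg (Ne.symm e1), Nat.cast_zero]
    · -- sign `-1`
      have h1 : ∀ j, (if j = i₀ then 0 else 1) ≤ F (μ j) (R.lam i₀) := by
        intro j
        split_ifs with e1
        · exact Nat.zero_le _
        · have := hrel' (μ j) j
          rw [hdelta, hdelta, if_pos rfl, if_neg e1] at this
          have h2 : F (μ j) (R.lam i₀) = F (μ j) (R.lam j) + 1 := by
            have : ((F (μ j) (R.lam i₀) : ℕ) : ℂ) = ((F (μ j) (R.lam j) + 1 : ℕ) : ℂ) := by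
              push_cast
              linear_combination -this
            exact_mod_cast this
          omega
      have h2 := (Finset.sum_le_sum fun j (_ : j ∈ Finset.univ) => h1 j).trans
        (le_trans (Nat.le_add_right _ _) (hle (R.lam i₀)))
      have h3 : ∑ j : Fin R.n, (if j = i₀ then 0 else 1) + 1 = R.n := by
        rw [← Finset.add_sum_erase _ _ (Finset.mem_univ i₀), if_pos rfl, zero_add,
          Finset.sum_congr rfl (fun j hj => if_neg (Finset.mem_erase.mp hj).1), Finset.sum_const,
          Finset.card_erase_of_mem (Finset.mem_univ _), Finset.card_univ, Fintype.card_fin,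
          smul_eq_mul, mul_one]
        omega
      omega

end Cfsg.Agent.MaxSub.SingerTwoTrans
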