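import Mathlib

/-!
# The degree arithmetic for two-transitivity of Singer overgroups in dimension five

For a prime power `q ≡ 1 (mod 5)` and `a < b ≤ 4`, the number `b (q⁴+q³+q²+q+1) + 5a - 5b`
(five times the degree `a + b (m - 1)` of a putative constituent) does not divide the order of
`SL₅(q)`.
-/

set_option autoImplicit false

namespace Cfsg.Agent.MaxSub.SingerTwoTrans

/-- `gcd (d, x ^ k)` divides `gcd (d, x) ^ k`, used in the form "divides a bound". -/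
theorem gcd_pow_dvd_bound {d x B : ℕ} (h : Nat.gcd d x ∣ B) (k : ℕ) :
    Nat.gcd d (x ^ k) ∣ B ^ k := by
  induction k with
  | zero => simp
  | succ k ih =>
    rw [pow_succ, pow_succ]
    exact (Nat.gcd_mul_right_dvd_mul_gcd d (x ^ k) x).trans (mul_dvd_mul ih h)

/-- Multiplying bounds on the greatest common divisors. -/
theorem gcd_mul_dvd_bound {d x y B B' : ℕ} (h : Nat.gcd d x ∣ B) (h' : Nat.gcd d y ∣ B') :
    Nat.gcd d (x * y) ∣ B * B' :=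
  (Nat.gcd_mul_right_dvd_mul_gcd d x y).trans (mul_dvd_mul h h')

/-- A common divisor of `d` and a prime power `q` larger than `B` is all of the `q`-part. -/
theorem gcd_primePow_pow {d q B : ℕ} (hq : IsPrimePow q) (hB : 0 < B) (hlt : B < q)
    (h : Nat.gcd d q ∣ B) (k : ℕ) : Nat.gcd d (q ^ k) ∣ B := by
  obtain ⟨p, e, hp, -, rfl⟩ := hq
  have hp' : p.Prime := hp.nat_prime
  obtain ⟨i, -, hi⟩ := (Nat.dvd_prime_pow hp').mp
    (show Nat.gcd d ((p ^ e) ^ k) ∣ p ^ (e * k) by rw [pow_mul]; exact Nat.gcd_dvd_right _ _)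
  have hid : p ^ i ∣ d := hi ▸ Nat.gcd_dvd_left _ _
  rcases le_or_gt i e with hie | hie
  · rw [hi]
    exact (Nat.dvd_gcd hid (pow_dvd_pow p hie)).trans h
  · exfalso
    have h1 : p ^ e ∣ B :=
      (Nat.dvd_gcd ((pow_dvd_pow p hie.le).trans hid) dvd_rfl).trans h
    exact absurd (Nat.le_of_dvd hB h1) (by omega)

/-- The small values of `q`. -/
theorem small_cases : ∀ n < 19, ∀ b < 5, ∀ a < b, 2 ≤ n →
    ¬ ((b * ((5*n+1)^4+(5*n+1)^3+(5*n+1)^2+(5*n+1)+1) + 5*a - 5*b) ∣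
      (5*n+1)^10*(5*n+1-1)^4*(5*n+1+1)^2*((5*n+1)^2+1)*((5*n+1)^2+(5*n+1)+1)*
        ((5*n+1)^4+(5*n+1)^3+(5*n+1)^2+(5*n+1)+1)) := by
  decide +kernel

/-- `(q³+2q²+3q+4)/5` for `q = 5n+1` has only small common divisors with the order factors. -/
theorem cubic_not_dvd {n : ℕ} (hn : 19 ≤ n) (hq : IsPrimePow (5*n+1)) :
    ¬ (25*n^3+25*n^2+10*n+2) ∣
      (5*n+1)^10*(5*n)^4*(5*n+1+1)^2*((5*n+1)^2+1)*((5*n+1)^2+(5*n+1)+1)*
        ((5*n+1)^4+(5*n+1)^3+(5*n+1)^2+(5*n+1)+1) := by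
  intro hd
  set q := 5*n+1 with hqd
  set c := 25*n^3+25*n^2+10*n+2 with hc
  have hcZ : (c : ℤ) = 25*(n:ℤ)^3+25*(n:ℤ)^2+10*n+2 := by rw [hc]; push_cast; ring
  have hqZ : (q : ℤ) = 5*(n:ℤ)+1 := by rw [hqd]; push_cast; ring
  have g1 : Nat.gcd c q ∣ 4 := by
    obtain ⟨x, hx⟩ := Int.natCast_dvd_natCast.mpr (Nat.gcd_dvd_left c q)
    obtain ⟨y, hy⟩ := Int.natCast_dvd_natCast.mpr (Nat.gcd_dvd_right c q)
    apply Int.natCast_dvd_natCast.mp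
    refine ⟨5 * x - ((q:ℤ)^2 + 2*q + 3) * y, ?_⟩
    rw [hqZ] at hy ⊢; rw [hcZ] at hx
    push_cast
    linear_combination 5 * hx - ((5*(n:ℤ)+1)^2 + 2*(5*n+1) + 3) * hy
  have g2 : Nat.gcd c (5*n) ∣ 2 := by
    obtain ⟨x, hx⟩ := Int.natCast_dvd_natCast.mpr (Nat.gcd_dvd_left c (5*n))
    obtain ⟨y, hy⟩ := Int.natCast_dvd_natCast.mpr (Nat.gcd_dvd_right c (5*n))
    apply Int.natCast_dvd_natCast.mp
    refine ⟨x - (5*(n:ℤ)^2+5*n+2) * y, ?_⟩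
    rw [hcZ] at hx; push_cast at hy ⊢
    linear_combination hx - (5*(n:ℤ)^2+5*n+2) * hy
  have g3 : Nat.gcd c (q+1) ∣ 2 := by
    obtain ⟨x, hx⟩ := Int.natCast_dvd_natCast.mpr (Nat.gcd_dvd_left c (q+1))
    obtain ⟨y, hy⟩ := Int.natCast_dvd_natCast.mpr (Nat.gcd_dvd_right c (q+1))
    apply Int.natCast_dvd_natCast.mp
    refine ⟨5 * x - ((q:ℤ)^2 + q + 2) * y, ?_⟩
    rw [hcZ] at hx; push_cast at hy ⊢; rw [hqZ] at hy ⊢
    linear_combination 5 * hx - ((5*(n:ℤ)+1)^2 + (5*n+1) + 2) * hy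
  have g4 : Nat.gcd c (q^2+1) ∣ 4 := by
    obtain ⟨x, hx⟩ := Int.natCast_dvd_natCast.mpr (Nat.gcd_dvd_left c (q^2+1))
    obtain ⟨y, hy⟩ := Int.natCast_dvd_natCast.mpr (Nat.gcd_dvd_right c (q^2+1))
    apply Int.natCast_dvd_natCast.mp
    -- `4 = 2(q²+1) - (q-1)(C - (q+2)(q²+1))`
    refine ⟨2 * y - ((q:ℤ) - 1) * (5 * x - ((q:ℤ) + 2) * y), ?_⟩
    rw [hcZ] at hx; push_cast at hy ⊢; rw [hqZ] at hy ⊢
    linear_combination 2 * hy - 5*(n:ℤ) * (5 * hx - (5*(n:ℤ)+3) * hy)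
  have g5 : Nat.gcd c (q^2+q+1) ∣ 7 := by
    obtain ⟨x, hx⟩ := Int.natCast_dvd_natCast.mpr (Nat.gcd_dvd_left c (q^2+q+1))
    obtain ⟨y, hy⟩ := Int.natCast_dvd_natCast.mpr (Nat.gcd_dvd_right c (q^2+q+1))
    apply Int.natCast_dvd_natCast.mp
    refine ⟨y - ((q:ℤ) - 2) * (5 * x - ((q:ℤ) + 1) * y), ?_⟩
    rw [hcZ] at hx; push_cast at hy ⊢; rw [hqZ] at hy ⊢
    linear_combination hy - (5*(n:ℤ)-1) * (5 * hx - (5*(n:ℤ)+2) * hy)
  have g6 : Nat.gcd c (q^4+q^3+q^2+q+1) ∣ 5 := by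
    obtain ⟨x, hx⟩ := Int.natCast_dvd_natCast.mpr (Nat.gcd_dvd_left c (q^4+q^3+q^2+q+1))
    obtain ⟨y, hy⟩ := Int.natCast_dvd_natCast.mpr (Nat.gcd_dvd_right c (q^4+q^3+q^2+q+1))
    apply Int.natCast_dvd_natCast.mp
    refine ⟨y - 25*(n:ℤ) * x, ?_⟩
    rw [hcZ] at hx; push_cast at hy ⊢; rw [hqZ] at hy
    linear_combination hy - 25*(n:ℤ) * hx
  have hle := Nat.le_of_dvd (by norm_num) ((Nat.dvd_gcd dvd_rfl hd).trans (gcd_mul_dvd_bound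
    (gcd_mul_dvd_bound (gcd_mul_dvd_bound (gcd_mul_dvd_bound (gcd_mul_dvd_bound
      (gcd_primePow_pow hq (by norm_num) (by omega) g1 10) (gcd_pow_dvd_bound g2 4))
      (gcd_pow_dvd_bound g3 2)) g4) g5) g6))
  have : 25 * 19^3 ≤ 25 * n^3 := by gcongr
  omega

/-- The divisor bound for the remaining cases. -/
theorem dvd_bound {n a b : ℕ} (v k Q : ℕ) (ha : 0 < a) (hab : a < b) (hk : b = a + k)
    (hv : 5 * a + v = 4 * b) (hv0 : 0 < v) (hvq : v < 5*n+1)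
    (hQ : v * v + b * v + b * b = Q) (hq : IsPrimePow (5*n+1))
    (hd : a + b * (5*n) * (25*n^3+25*n^2+10*n+2) ∣
      (5*n+1)^10*(5*n)^4*(5*n+1+1)^2*((5*n+1)^2+1)*((5*n+1)^2+(5*n+1)+1)*
        ((5*n+1)^4+(5*n+1)^3+(5*n+1)^2+(5*n+1)+1)) :
    a + b * (5*n) * (25*n^3+25*n^2+10*n+2) ≤ v * a^4 * v^2 * v * Q * (5*k) := by
  set q := 5*n+1 with hqd
  set d := a + b * (5*n) * (25*n^3+25*n^2+10*n+2) with hdd
  have hdZ : (d : ℤ) = a + b * (5*(n:ℤ)) * (25*(n:ℤ)^3+25*(n:ℤ)^2+10*n+2) := by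
    rw [hdd]; push_cast; ring
  have hqZ : (q : ℤ) = 5*(n:ℤ)+1 := by rw [hqd]; push_cast; ring
  have hvZ : (v : ℤ) = 4 * b - 5 * a := by omega
  have hkZ : (k : ℤ) = b - a := by omega
  -- `5 d = b A + 5 a - 5 b`
  have key : 5 * (d : ℤ) = b * ((q:ℤ)^4+(q:ℤ)^3+(q:ℤ)^2+q+1) + 5*a - 5*b := by
    rw [hdZ, hqZ]; ring
  have g1 : Nat.gcd d q ∣ v := by
    obtain ⟨x, hx⟩ := Int.natCast_dvd_natCast.mpr (Nat.gcd_dvd_left d q)
    obtain ⟨y, hy⟩ := Int.natCast_dvd_natCast.mpr (Nat.gcd_dvd_right d q)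
    apply Int.natCast_dvd_natCast.mp
    refine ⟨(b:ℤ) * ((q:ℤ)^3+(q:ℤ)^2+q+1) * y - 5 * x, ?_⟩
    linear_combination hvZ + key - 5 * hx + (b:ℤ) * ((q:ℤ)^3+(q:ℤ)^2+q+1) * hy
  have g2 : Nat.gcd d (5*n) ∣ a := by
    obtain ⟨x, hx⟩ := Int.natCast_dvd_natCast.mpr (Nat.gcd_dvd_left d (5*n))
    obtain ⟨y, hy⟩ := Int.natCast_dvd_natCast.mpr (Nat.gcd_dvd_right d (5*n))
    apply Int.natCast_dvd_natCast.mp
    refine ⟨x - (b:ℤ) * (25*(n:ℤ)^3+25*(n:ℤ)^2+10*n+2) * y, ?_⟩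
    push_cast at hy
    linear_combination hx - hdZ - (b:ℤ) * (25*(n:ℤ)^3+25*(n:ℤ)^2+10*n+2) * hy
  have g3 : Nat.gcd d (q+1) ∣ v := by
    obtain ⟨x, hx⟩ := Int.natCast_dvd_natCast.mpr (Nat.gcd_dvd_left d (q+1))
    obtain ⟨y, hy⟩ := Int.natCast_dvd_natCast.mpr (Nat.gcd_dvd_right d (q+1))
    apply Int.natCast_dvd_natCast.mp
    refine ⟨(b:ℤ) * ((q:ℤ)^3+q) * y - 5 * x, ?_⟩
    push_cast at hy
    linear_combination hvZ + key - 5 * hx + (b:ℤ) * ((q:ℤ)^3+q) * hy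
  have g4 : Nat.gcd d (q^2+1) ∣ v := by
    obtain ⟨x, hx⟩ := Int.natCast_dvd_natCast.mpr (Nat.gcd_dvd_left d (q^2+1))
    obtain ⟨y, hy⟩ := Int.natCast_dvd_natCast.mpr (Nat.gcd_dvd_right d (q^2+1))
    apply Int.natCast_dvd_natCast.mp
    refine ⟨(b:ℤ) * ((q:ℤ)^2+q) * y - 5 * x, ?_⟩
    push_cast at hy
    linear_combination hvZ + key - 5 * hx + (b:ℤ) * ((q:ℤ)^2+q) * hy
  have g5 : Nat.gcd d (q^2+q+1) ∣ Q := by
    obtain ⟨x, hx⟩ := Int.natCast_dvd_natCast.mpr (Nat.gcd_dvd_left d (q^2+q+1))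
    obtain ⟨y, hy⟩ := Int.natCast_dvd_natCast.mpr (Nat.gcd_dvd_right d (q^2+q+1))
    apply Int.natCast_dvd_natCast.mp
    -- with `w = -v`: `(bq + w)(-bq - b + w) + b²(q²+q+1) = w² - bw + b² = Q`
    refine ⟨(5 * x - (b:ℤ) * (q:ℤ)^2 * y) * (-((b:ℤ) * q) - b - v) + (b:ℤ)^2 * y, ?_⟩
    have hQZ : (Q : ℤ) = (v:ℤ) * v + b * v + b * b := by rw [← hQ]; push_cast; ring
    push_cast at hy
    rw [hvZ] at hQZ ⊢
    linear_combination hQZ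
      + (-((b:ℤ) * q) - b - (4 * b - 5 * a)) * (5 * hx - key - (b:ℤ) * (q:ℤ)^2 * hy)
      + (b:ℤ)^2 * hy
  have g6 : Nat.gcd d (q^4+q^3+q^2+q+1) ∣ 5*k := by
    obtain ⟨x, hx⟩ := Int.natCast_dvd_natCast.mpr (Nat.gcd_dvd_left d (q^4+q^3+q^2+q+1))
    obtain ⟨y, hy⟩ := Int.natCast_dvd_natCast.mpr (Nat.gcd_dvd_right d (q^4+q^3+q^2+q+1))
    apply Int.natCast_dvd_natCast.mp
    refine ⟨(b:ℤ) * y - 5 * x, ?_⟩
    push_cast at hy ⊢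
    linear_combination 5 * hkZ + key - 5 * hx + (b:ℤ) * hy
  have hpos : 0 < v * a^4 * v^2 * v * Q * (5*k) := by
    have : 0 < Q := by rw [← hQ]; positivity
    have : 0 < k := by omega
    positivity
  exact Nat.le_of_dvd hpos ((Nat.dvd_gcd dvd_rfl hd).trans (gcd_mul_dvd_bound
    (gcd_mul_dvd_bound (gcd_mul_dvd_bound (gcd_mul_dvd_bound (gcd_mul_dvd_bound
      (gcd_primePow_pow hq hv0 hvq g1 10) (gcd_pow_dvd_bound g2 4))
      (gcd_pow_dvd_bound g3 2)) g4) g5) g6))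

/-- No constituent degree `a + b (m - 1)` with `a < b ≤ 4` divides the order. -/
theorem no_degree {q : ℕ} (hq : IsPrimePow q) (h5 : q % 5 = 1) (a b : ℕ) (hab : a < b)
    (hb : b ≤ 4) :
    ¬ ((b * (q^4+q^3+q^2+q+1) + 5*a - 5*b) ∣
      q^10*(q-1)^4*(q+1)^2*(q^2+1)*(q^2+q+1)*(q^4+q^3+q^2+q+1)) := by
  obtain ⟨n, rfl⟩ : ∃ n, q = 5*n+1 := ⟨q / 5, by omega⟩
  have hn2 : 2 ≤ n := by
    by_contra h
    obtain rfl | rfl : n = 0 ∨ n = 1 := by omega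
    · exact hq.ne_one rfl
    · exact absurd hq (by
        intro h6
        obtain ⟨p, e, hp, he, h⟩ := h6
        have h2 : p = 2 := ((Nat.prime_dvd_prime_iff_eq Nat.prime_two hp.nat_prime).mp
          (Nat.prime_two.dvd_of_dvd_pow (show (2:ℕ) ∣ p ^ e by rw [h]; norm_num))).symm
        have h3 : p = 3 := ((Nat.prime_dvd_prime_iff_eq Nat.prime_three hp.nat_prime).mp
          (Nat.prime_three.dvd_of_dvd_pow (show (3:ℕ) ∣ p ^ e by rw [h]; norm_num))).symm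
        omega)
  rcases lt_or_ge n 19 with hn | hn
  · exact small_cases n hn b (by omega) a hab hn2
  intro hD
  set c := 25*n^3+25*n^2+10*n+2 with hc
  have hA : b * ((5*n+1)^4+(5*n+1)^3+(5*n+1)^2+(5*n+1)+1) + 5*a - 5*b
      = 5 * (a + b * (5*n) * c) := by
    apply Nat.sub_eq_of_eq_add
    rw [hc]; ring
  rw [hA, Nat.add_sub_cancel] at hD
  have hd := (dvd_mul_left _ 5).trans hD
  rcases Nat.eq_zero_or_pos a with ha | ha
  · subst ha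
    rw [zero_add] at hd
    exact cubic_not_dvd hn hq ((dvd_mul_left c _).trans hd)
  have hc19 : 172000 ≤ c := by
    have : 25 * 19^3 ≤ 25 * n^3 := by gcongr
    have : 25 * 19^2 ≤ 25 * n^2 := by gcongr
    omega
  have h95 : 95 * 172000 ≤ (5*n) * c := Nat.mul_le_mul (by omega) hc19
  obtain ⟨k, rfl⟩ := Nat.exists_eq_add_of_le hab.le
  obtain ⟨v, hv⟩ := Nat.exists_eq_add_of_le (show 5 * a + 1 ≤ 4 * (a + k) by omega)
  have := dvd_bound (v + 1) k _ ha hab rfl (by omega) (by omega) (by omega) rfl hq hd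
  rw [← hc, mul_assoc (a + k)] at this
  have hv' : v = 4 * (a + k) - (5 * a + 1) := by omega
  subst hv'
  obtain ⟨rfl, rfl⟩ | ⟨rfl, rfl⟩ | ⟨rfl, rfl⟩ | ⟨rfl, rfl⟩ | ⟨rfl, rfl⟩ | ⟨rfl, rfl⟩ :
      a = 1 ∧ k = 1 ∨ a = 1 ∧ k = 2 ∨ a = 1 ∧ k = 3 ∨ a = 2 ∧ k = 1 ∨ a = 2 ∧ k = 2
        ∨ a = 3 ∧ k = 1 := by omega
  all_goals
    norm_num at this
    omega

end Cfsg.Agent.MaxSub.SingerTwoTrans
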