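import Cfsg.Agent.MaxSub.SingerTwoTrans.Setup
import Cfsg.Agent.Char.PermChar
import Cfsg.Agent.Char.Linear
import Cfsg.Agent.Char.Kernel
import Cfsg.Agent.CharInd.Coherence

/-!
# Exceptional characters of a self-centralising commutative subgroup
-/

set_option autoImplicit false
set_option linter.unusedSectionVars false
set_option linter.style.haveILetI false

open scoped ComplexConjugate BigOperators

namespace Cfsg.Agent.MaxSub.SingerTwoTrans

universe u v

variable {G : Type u} [Group G] [Fintype G] {Ω : Type v} [MulAction G Ω] {e m k : ℕ}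
  {A : Subgroup G} [Fintype A]

theorem Cfg.comm' (h : Cfg G Ω e m k A) (a b : A) : a * b = b * a := by
  haveI := h.comm
  exact mul_comm' a b

theorem Cfg.two_le_m (h : Cfg G Ω e m k A) : 2 ≤ m := by
  have := h.large
  omega

theorem Cfg.conj_mem_normalizer (h : Cfg G Ω e m k A) {a x : G} (ha : a ∈ A) (ha1 : a ≠ 1)
    (hx : x⁻¹ * a * x ∈ A) : x ∈ Subgroup.normalizer (A : Set G) := by
  have key : ∀ b ∈ A, x⁻¹ * b * x ∈ A := by
    intro b hb
    refine h.cc _ hx (fun h1 => ha1 ?_) _ ?_
    · have := congrArg (fun t => x * t * x⁻¹) h1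
      simpa [mul_assoc] using this
    · have hab : b * a = a * b := congrArg Subtype.val (h.comm' ⟨b, hb⟩ ⟨a, ha⟩)
      calc x⁻¹ * b * x * (x⁻¹ * a * x) = x⁻¹ * (b * a) * x := by group
        _ = x⁻¹ * (a * b) * x := by rw [hab]
        _ = x⁻¹ * a * x * (x⁻¹ * b * x) := by group
  let F : A → A := fun b => ⟨x⁻¹ * b * x, key b b.2⟩
  have hsurj : Function.Surjective F := Finite.surjective_of_injective fun b c hbc =>
    Subtype.ext (mul_left_cancel (mul_right_cancel (congrArg Subtype.val hbc)))
  rw [Subgroup.mem_normalizer_iff]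
  intro b
  constructor
  · intro hb
    obtain ⟨c, hc⟩ := hsurj ⟨b, hb⟩
    have hc' : x⁻¹ * (c : G) * x = b := congrArg Subtype.val hc
    rw [← hc']
    simp [mul_assoc]
  · intro hb
    simpa [mul_assoc] using key _ hb

/-- The conjugate of a character of `A` by an element of the normaliser. -/
noncomputable def tw (x : Subgroup.normalizer (A : Set G)) (l : Cfsg.IrrCharacter A) :
    Cfsg.IrrCharacter A :=
  ⟨(l : A → ℂ) ∘ (A.normalizerMonoidHom x), Char.isIrrCharacter_comp_mulEquiv l.2 _⟩

theorem tw_apply (x : Subgroup.normalizer (A : Set G)) (l : Cfsg.IrrCharacter A) (a : A) :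
    (tw x l : A → ℂ) a = (l : A → ℂ) (A.normalizerMonoidHom x a) := rfl

theorem tw_one (l : Cfsg.IrrCharacter A) : tw (1 : Subgroup.normalizer (A : Set G)) l = l :=
  Subtype.ext (funext fun a => by simp [tw_apply])

theorem tw_tw (x y : Subgroup.normalizer (A : Set G)) (l : Cfsg.IrrCharacter A) :
    tw x (tw y l) = tw (y * x) l :=
  Subtype.ext (funext fun a => by simp [tw_apply])

theorem tw_trivial (x : Subgroup.normalizer (A : Set G)) :
    tw x (Char.trivialIrr A) = Char.trivialIrr A :=
  Subtype.ext (funext fun _ => rfl)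

theorem tw_eq_trivial {x : Subgroup.normalizer (A : Set G)} {l : Cfsg.IrrCharacter A}
    (h : tw x l = Char.trivialIrr A) : l = Char.trivialIrr A := by
  have := congrArg (tw x⁻¹) h
  rwa [tw_tw, tw_trivial, mul_inv_cancel, tw_one] at this

theorem Cfg.tw_fix (h : Cfg G Ω e m k A) {x : Subgroup.normalizer (A : Set G)}
    {l : Cfsg.IrrCharacter A} (hl : l ≠ Char.trivialIrr A) :
    tw x l = l ↔ (x : G) ∈ A := by
  constructor
  · intro hx
    by_contra hxA
    apply hl
    obtain ⟨f, hf⟩ := Char.irr_exists_monoidHom_of_comm h.comm' l.2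
    let c := A.normalizerMonoidHom x
    have hinj : Function.Injective fun a : A => c a * a⁻¹ := by
      intro a b hab
      by_contra hne
      have hcd : c (a * b⁻¹) = a * b⁻¹ := by
        rw [map_mul, map_inv]
        have h1 : c a = c b * b⁻¹ * a := by
          have := congrArg (fun t => t * a) hab
          simpa [mul_assoc] using this
        rw [h1, mul_assoc (c b), h.comm' b⁻¹ a, h.comm' (c b * (a * b⁻¹)) (c b)⁻¹,
          inv_mul_cancel_left]
      refine hxA (h.cc ((a * b⁻¹ : A) : G) (a * b⁻¹).2 ?_ x ?_)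
      · intro h1
        exact hne (mul_inv_eq_one.mp (Subtype.ext h1))
      · have := congrArg Subtype.val hcd
        change (x : G) * ((a * b⁻¹ : A) : G) * (x : G)⁻¹ = ((a * b⁻¹ : A) : G) at this
        exact mul_inv_eq_iff_eq_mul.mp this
    refine Subtype.ext (funext fun a => ?_)
    obtain ⟨b, rfl⟩ := Finite.surjective_of_injective hinj a
    have h2 : f (c b) = f b := Units.ext (by rw [← hf, ← hf, ← tw_apply, hx])
    rw [hf, map_mul, map_inv, h2, mul_inv_cancel]
    rfl
  · intro hxA
    refine Subtype.ext (funext fun a => ?_)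
    rw [tw_apply]
    refine congrArg (l : A → ℂ) (Subtype.ext ?_)
    change (x : G) * a * (x : G)⁻¹ = a
    rw [show (x : G) * a = a * x from congrArg Subtype.val (h.comm' ⟨x, hxA⟩ a),
      mul_inv_cancel_right]

/-- The multiplicity of `l` in the restriction of `ψ` to `A`. -/
noncomputable def resMult (A : Subgroup G) [Fintype A] (ψ : G → ℂ) (l : Cfsg.IrrCharacter A) : ℂ :=
  Cfsg.classInner (fun a : A => ψ a) (l : A → ℂ)

theorem resMult_tw {ψ : G → ℂ} (hψ : Cfsg.IsClassFunction G ψ)
    (x : Subgroup.normalizer (A : Set G)) (l : Cfsg.IrrCharacter A) :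
    resMult A ψ (tw x l) = resMult A ψ l := by
  simp only [resMult, Cfsg.classInner]
  congr 1
  refine Fintype.sum_equiv (A.normalizerMonoidHom x).toEquiv _ _ fun a => ?_
  rw [tw_apply]
  congr 1
  exact (hψ a x).symm

theorem card_normalizer (h : Cfg G Ω e m k A) :
    Nat.card (Subgroup.normalizer (A : Set G)) = e * m := by
  have := Subgroup.card_mul_index (A.subgroupOf (Subgroup.normalizer (A : Set G)))
  rw [Nat.card_congr (Subgroup.subgroupOfEquivOfLe Subgroup.le_normalizer).toEquiv, h.card_A,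
    ← Subgroup.relIndex, h.relN] at this
  rw [← this, mul_comm]

open Classical in
theorem card_fiber (h : Cfg G Ω e m k A) {l : Cfsg.IrrCharacter A} (hl : l ≠ Char.trivialIrr A)
    (y : Subgroup.normalizer (A : Set G)) :
    (Finset.univ.filter fun x : Subgroup.normalizer (A : Set G) => tw x l = tw y l).card = m := by
  have hset : ∀ x : Subgroup.normalizer (A : Set G),
      tw x l = tw y l ↔ (x : G) * (y : G)⁻¹ ∈ A := by
    intro x
    have : (tw (x * y⁻¹) l = l) ↔ tw x l = tw y l := by
      rw [← tw_tw]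
      constructor
      · intro h1
        have := congrArg (tw y) h1
        rwa [tw_tw, inv_mul_cancel, tw_one] at this
      · intro h1
        rw [h1, tw_tw, mul_inv_cancel, tw_one]
    rw [← this, h.tw_fix hl]
    rfl
  rw [← Fintype.card_subtype, ← Nat.card_eq_fintype_card, ← h.card_A]
  exact Nat.card_congr
    { toFun := fun x => ⟨(x.1 : G) * (y : G)⁻¹, (hset x.1).mp x.2⟩
      invFun := fun a => ⟨⟨(a : G) * y, mul_mem (Subgroup.le_normalizer a.2) y.2⟩,
        (hset _).mpr (by simp)⟩
      left_inv := fun x => Subtype.ext (Subtype.ext (by simp))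
      right_inv := fun a => Subtype.ext (by simp) }

/-- Representatives of the orbits on nontrivial characters. -/
structure Reps (A : Subgroup G) [Fintype A] where
  n : ℕ
  lam : Fin n → Cfsg.IrrCharacter A
  ne_one : ∀ i, lam i ≠ Char.trivialIrr A
  surj : ∀ l, l ≠ Char.trivialIrr A → ∃ i x, tw x (lam i) = l
  inj : ∀ i j x, tw x (lam i) = lam j → i = j

theorem exists_reps : Nonempty (Reps A) := by
  classical
  let S : Setoid {l : Cfsg.IrrCharacter A // l ≠ Char.trivialIrr A} :=
    { r := fun a b => ∃ x, tw x a.1 = b.1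
      iseqv :=
        { refl := fun a => ⟨1, tw_one _⟩
          symm := by
            rintro a b ⟨x, hx⟩
            exact ⟨x⁻¹, by rw [← hx, tw_tw, mul_inv_cancel, tw_one]⟩
          trans := by
            rintro a b c ⟨x, hx⟩ ⟨y, hy⟩
            exact ⟨x * y, by rw [← hy, ← hx, tw_tw]⟩ } }
  let eq := Finite.equivFin (Quotient S)
  refine ⟨⟨Nat.card (Quotient S), fun i => (eq.symm i).out.1, fun i => (eq.symm i).out.2,
    fun l hl => ?_, fun i j x hx => ?_⟩⟩
  · obtain ⟨x, hx⟩ := Quotient.mk_out (s := S) (⟨l, hl⟩ : {l // l ≠ Char.trivialIrr A})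
    refine ⟨eq ⟦⟨l, hl⟩⟧, x, ?_⟩
    simpa using hx
  · apply eq.symm.injective
    rw [← Quotient.out_eq (eq.symm i), ← Quotient.out_eq (eq.symm j)]
    exact Quotient.sound ⟨x, hx⟩

open Classical in
theorem Reps.sum_eq (R : Reps A) (h : Cfg G Ω e m k A) {B : Type*} [AddCommMonoid B]
    (g : Cfsg.IrrCharacter A → B) (hg : ∀ x l, g (tw x l) = g l) :
    m • ∑ l ∈ Finset.univ.erase (Char.trivialIrr A), g l = (e * m) • ∑ i, g (R.lam i) := by
  let S : Finset (Fin R.n × Subgroup.normalizer (A : Set G)) := Finset.univ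
  let π : Fin R.n × Subgroup.normalizer (A : Set G) → Cfsg.IrrCharacter A :=
    fun p => tw p.2 (R.lam p.1)
  have hmaps : ∀ p ∈ S, π p ∈ Finset.univ.erase (Char.trivialIrr A) := fun p _ =>
    Finset.mem_erase.mpr ⟨fun h0 => R.ne_one p.1 (tw_eq_trivial h0), Finset.mem_univ _⟩
  have h1 := Finset.sum_fiberwise_of_maps_to hmaps (fun p => g (π p))
  have h2 : ∀ l ∈ Finset.univ.erase (Char.trivialIrr A),
      ∑ p ∈ S.filter (fun p => π p = l), g (π p) = m • g l := by
    intro l hl
    obtain ⟨i, y, hy⟩ := R.surj l (Finset.mem_erase.mp hl).1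
    have hfil : S.filter (fun p => π p = l) =
        (Finset.univ.filter fun x : Subgroup.normalizer (A : Set G) =>
          tw x (R.lam i) = tw y (R.lam i)).image (fun x => (i, x)) := by
      ext p
      simp only [S, π, Finset.mem_filter, Finset.mem_univ, true_and, Finset.mem_image]
      constructor
      · intro hp
        obtain ⟨j, x⟩ := p
        have hji : j = i := R.inj j i (x * y⁻¹) (by
          rw [← tw_tw, hp, ← hy, tw_tw, mul_inv_cancel, tw_one])
        exact ⟨x, by rw [hji] at hp; rw [hp, hy], by rw [hji]⟩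
      · rintro ⟨x, hx, rfl⟩
        rw [hx, hy]
    rw [Finset.sum_congr rfl (fun p hp => by rw [(Finset.mem_filter.mp hp).2] :
      ∀ p ∈ S.filter (fun p => π p = l), g (π p) = g l), Finset.sum_const, hfil,
      Finset.card_image_of_injective _ (fun a b hab => (Prod.mk.injEq _ _ _ _ ▸ hab).2),
      card_fiber h (R.ne_one i)]
  rw [Finset.sum_congr rfl h2, ← Finset.smul_sum] at h1
  rw [h1]
  simp only [S, π, Fintype.sum_prod_type, hg, Finset.sum_const, Finset.card_univ]
  rw [← Finset.smul_sum, ← Nat.card_eq_fintype_card, card_normalizer h]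

open Classical in
theorem Reps.mul_n (R : Reps A) (h : Cfg G Ω e m k A) :
    e * R.n + 1 = Nat.card (Cfsg.IrrCharacter A) := by
  have h1 := R.sum_eq h (fun _ => (1 : ℕ)) (fun _ _ => rfl)
  simp only [Finset.sum_const, smul_eq_mul, mul_one, Finset.card_univ, Fintype.card_fin,
    Finset.card_erase_of_mem (Finset.mem_univ _)] at h1
  rw [← Nat.card_eq_fintype_card] at h1
  have hm := h.two_le_m
  have hpos : 0 < Nat.card (Cfsg.IrrCharacter A) := Nat.card_pos_iff.mpr
    ⟨⟨Char.trivialIrr A⟩, inferInstance⟩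
  have h2 : Nat.card (Cfsg.IrrCharacter A) - 1 = e * R.n :=
    Nat.eq_of_mul_eq_mul_left (show 0 < m by omega) (by rw [h1]; ring)
  omega

theorem Cfg.card_irr (h : Cfg G Ω e m k A) : Nat.card (Cfsg.IrrCharacter A) = m := by
  have h1 := Char.sum_irr_degree_sq (G := A)
  simp only [Char.irr_degree_one_of_comm h.comm' (Subtype.prop _), one_pow, Finset.sum_const,
    Finset.card_univ, nsmul_eq_mul, mul_one, ← Nat.card_eq_fintype_card, h.card_A] at h1
  exact_mod_cast h1

open Classical in
theorem Reps.degree (R : Reps A) (h : Cfg G Ω e m k A) {ψ : G → ℂ} (hψ : Cfsg.IsCharacter G ψ) :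
    ψ 1 = resMult A ψ (Char.trivialIrr A) + (e : ℂ) * ∑ i, resMult A ψ (R.lam i) := by
  have hA := Char.isCharacter_restrict hψ A
  have h1 := congrFun (Char.eq_sum_classInner_smul (Char.isCharacter_isClassFunction hA)) 1
  simp only [Finset.sum_apply, Pi.smul_apply, smul_eq_mul,
    Char.irr_degree_one_of_comm h.comm' (Subtype.prop _), mul_one, Subgroup.coe_one] at h1
  rw [h1]
  change ∑ l, resMult A ψ l = _
  rw [← Finset.add_sum_erase _ _ (Finset.mem_univ (Char.trivialIrr A))]
  have h2 := R.sum_eq h (resMult A ψ)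
    (fun x l => resMult_tw (Char.isCharacter_isClassFunction hψ) x l)
  rw [nsmul_eq_mul, nsmul_eq_mul, Nat.cast_mul, mul_comm (e : ℂ), mul_assoc] at h2
  have hm : (m : ℂ) ≠ 0 := Nat.cast_ne_zero.mpr (by have := h.two_le_m; omega)
  rw [mul_left_cancel₀ hm h2]

open Classical in
theorem Reps.classInner_ind (R : Reps A) (h : Cfg G Ω e m k A) (i₀ i j : Fin R.n)
    (hi : i ≠ i₀) (hj : j ≠ i₀) :
    Cfsg.classInner (Cfsg.indFun A ((R.lam i : A → ℂ) - (R.lam i₀ : A → ℂ)))
      (Cfsg.indFun A ((R.lam j : A → ℂ) - (R.lam i₀ : A → ℂ))) = if i = j then 2 else 1 := by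
  rw [CharInd.classInner_indFun_left A _ (CharInd.indFun_isClassFunction A _),
    ← Char.classInner_conj]
  set θ : A → ℂ := (R.lam j : A → ℂ) - (R.lam i₀ : A → ℂ) with hθ
  have hθ1 : θ 1 = 0 := by
    simp [hθ, Char.irr_degree_one_of_comm h.comm' (Subtype.prop _)]
  have hres : (fun a : A => Cfsg.indFun A θ a) =
      (m : ℂ)⁻¹ • ∑ x : Subgroup.normalizer (A : Set G),
        ((tw x (R.lam j) : A → ℂ) - (tw x (R.lam i₀) : A → ℂ)) := by
    funext a
    simp only [Pi.smul_apply, Finset.sum_apply, Pi.sub_apply, smul_eq_mul, tw_apply]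
    by_cases ha : a = 1
    · subst ha
      rw [Subgroup.coe_one, CharInd.indFun_one_eq_zero A hθ1]
      simp [Char.irr_degree_one_of_comm h.comm' (Subtype.prop _)]
    rw [CharInd.indFun_apply, h.card_A]
    congr 1
    have hsupp : ∀ y : G, y⁻¹ ∉ Subgroup.normalizer (A : Set G) →
        Cfsg.extendByZero A θ (y⁻¹ * a * y) = 0 := fun y hy =>
      CharInd.extendByZero_notMem A θ fun hm' => hy (inv_mem
        (h.conj_mem_normalizer a.2 (fun e1 => ha (Subtype.ext e1)) hm'))
    rw [← Finset.sum_subset (Finset.subset_univ (Finset.univ.image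
      fun x : Subgroup.normalizer (A : Set G) => (x : G)⁻¹)) (fun y _ hy => hsupp y fun hy' =>
        hy (Finset.mem_image.mpr ⟨⟨y⁻¹, hy'⟩, Finset.mem_univ _, inv_inv y⟩)),
      Finset.sum_image (fun a _ b _ hab => Subtype.ext (inv_injective hab))]
    refine Finset.sum_congr rfl fun x _ => ?_
    rw [inv_inv]
    exact CharInd.extendByZero_coe A θ (A.normalizerMonoidHom x a)
  rw [hres]
  simp only [Char.classInner_smul_left, Char.classInner_sum_left, Char.classInner_sub_left,
    Char.classInner_sub_right, Char.classInner_irrCharacter]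
  have hne : ∀ {p q : Fin R.n}, p ≠ q → ∀ x, tw x (R.lam p) ≠ R.lam q :=
    fun hpq x hx => hpq (R.inj _ _ x hx)
  simp only [if_neg (hne hj _), if_neg (hne hi.symm _), sub_zero, zero_sub, Finset.sum_neg_distrib,
    mul_neg, sub_neg_eq_add, Finset.sum_boole]
  have h00 := card_fiber h (R.ne_one i₀) 1
  rw [tw_one] at h00
  rw [h00]
  have hm : (m : ℂ) ≠ 0 := Nat.cast_ne_zero.mpr (by have := h.two_le_m; omega)
  by_cases hij : i = j
  · subst hij
    have hii := card_fiber h (R.ne_one i) 1
    rw [tw_one] at hii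
    rw [hii, if_pos rfl, inv_mul_cancel₀ hm, one_add_one_eq_two]
    exact map_ofNat _ 2
  · rw [if_neg hij, show (Finset.univ.filter fun x : Subgroup.normalizer (A : Set G) =>
      tw x (R.lam j) = R.lam i) = ∅ from Finset.filter_eq_empty_iff.mpr
        fun x _ => hne (Ne.symm hij) x]
    simp [hm]

/-- Exceptional characters and their relation to multiplicities in restrictions. -/
theorem Reps.exceptional (R : Reps A) (h : Cfg G Ω e m k A) (i₀ : Fin R.n) :
    ∃ (ε : ℂ) (μ : Fin R.n → Cfsg.IrrCharacter G), (ε = 1 ∨ ε = -1) ∧ Function.Injective μ ∧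
      (∀ i, (μ i : G → ℂ) 1 = (μ i₀ : G → ℂ) 1) ∧
      ∀ ψ : G → ℂ, Cfsg.IsClassFunction G ψ → ∀ i, resMult A ψ (R.lam i) - resMult A ψ (R.lam i₀) =
        ε * (Cfsg.classInner ψ (μ i : G → ℂ) - Cfsg.classInner ψ (μ i₀ : G → ℂ)) := by
  classical
  set τ : Fin R.n → G → ℂ := fun i =>
    Cfsg.indFun A ((R.lam i : A → ℂ) - (R.lam i₀ : A → ℂ)) with hτ
  have hone : ∀ i, τ i 1 = 0 := fun i => CharInd.indFun_one_eq_zero A (by
    simp [Char.irr_degree_one_of_comm h.comm' (Subtype.prop _)])
  obtain ⟨ε, hε, μ, hμ, hinj, hμe⟩ := CharInd.coherence_gram R.n i₀ τ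
    (by simp only [hτ, sub_self]; exact CharInd.indFun_zero A)
    (fun i => CharInd.genChar_indFun A (CharInd.genChar_sub (CharInd.genChar_irr (R.lam i).2)
      (CharInd.genChar_irr (R.lam i₀).2))) hone (R.classInner_ind h i₀)
  refine ⟨ε, fun i => ⟨μ i, hμ i⟩, hε, fun i j hij => hinj (congrArg Subtype.val hij),
    fun i => ?_, fun ψ hψ i => ?_⟩
  · have := congrFun (hμe i) 1
    rw [hone, Pi.smul_apply, Pi.sub_apply, smul_eq_mul] at this
    rcases hε with rfl | rfl
    · linear_combination -this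
    · linear_combination this
  · have h1 : Cfsg.classInner ψ (τ i) = resMult A ψ (R.lam i) - resMult A ψ (R.lam i₀) := by
      rw [hτ, CharInd.classInner_indFun_right A _ hψ, Char.classInner_sub_right]
      rfl
    rw [← h1, hμe i, Char.classInner_smul_right, Char.classInner_sub_right]
    rcases hε with rfl | rfl <;> simp

end Cfsg.Agent.MaxSub.SingerTwoTrans
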