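import Mathlib

/-!
Configuration for the proof that an overgroup of a Singer normaliser is two-transitive on points:
a self-centralising cyclic Hall subgroup `A` of order `m`, normalised by `e` cosets, acting
semiregularly with `k` orbits.
-/

set_option autoImplicit false

namespace Cfsg.Agent.MaxSub.SingerTwoTrans

universe u v

/-- The hypotheses on `A`. -/
structure Cfg (G : Type u) [Group G] (Ω : Type v) [MulAction G Ω] (e m k : ℕ)
    (A : Subgroup G) : Prop where
  comm : IsMulCommutative A
  card_A : Nat.card A = m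
  cc : ∀ x ∈ A, x ≠ 1 → ∀ g : G, g * x = x * g → g ∈ A
  relN : A.relIndex (Subgroup.normalizer (A : Set G)) = e
  e_prime : e.Prime
  hall : m.Coprime A.index
  card_Ω : Nat.card Ω = k * m
  free : ∀ x ∈ A, x ≠ 1 → ∀ w : Ω, x • w ≠ w
  fixes : ∃ s ∈ Subgroup.normalizer (A : Set G), s ∉ A ∧ ∃ w : Ω, s • w = w
  core : ∀ T : Subgroup G, T.Normal → T ⊓ A = ⊥ → T = ⊥
  not_normal : ¬ A.Normal
  large : e * e + 1 < m
  large' : e * (k + 2) < m

end Cfsg.Agent.MaxSub.SingerTwoTrans
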